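import Mathlib
import Cfsg.Agent.H140.Moebius

/-!
# A basis adapted to a chain of subspaces
-/

set_option autoImplicit false

namespace Cfsg.Agent.H140.Adapt

open Module

universe u

/-- **A basis adapted to a chain.** -/
theorem exists_basis {F : Type*} [Field F] (m : ℕ) : ∀ (V : Type u) [AddCommGroup V] [Module F V]
    [FiniteDimensional F V] (C : Finset (Submodule F V)), C.card = m →
    IsChain (· ≤ ·) (C : Set (Submodule F V)) → ∀ n : ℕ, finrank F V = n →
    ∃ b : Basis (Fin n) F V, ∀ W ∈ C, W = Submodule.span F (b '' {i | i.val < finrank F W}) := by
  classical
  induction m using Nat.strong_induction_on with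
  | _ m ih =>
    intro V _ _ _ C hm hC n hn
    rcases C.eq_empty_or_nonempty with rfl | hne
    · exact ⟨Module.finBasisOfFinrankEq F V hn, by simp⟩
    · obtain ⟨U, hU, hmax⟩ := Cfsg.Agent.H140.Moebius.exists_greatest hC hne
      set C' := C.erase U with hC'
      set C'' : Finset (Submodule F U) := C'.image (fun W => W.comap U.subtype) with hC''
      have hcard : C''.card < m := by
        calc C''.card ≤ C'.card := Finset.card_image_le
          _ < C.card := Finset.card_erase_lt_of_mem hU
          _ = m := hm
      have hchain : IsChain (· ≤ ·) (C'' : Set (Submodule F U)) := by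
        rintro A hA B hB _
        simp only [hC'', Finset.coe_image, Set.mem_image, Finset.mem_coe] at hA hB
        obtain ⟨A, hA, rfl⟩ := hA
        obtain ⟨B, hB, rfl⟩ := hB
        rcases hC.total (Finset.mem_of_mem_erase hA) (Finset.mem_of_mem_erase hB) with h | h
        · exact Or.inl (Submodule.comap_mono h)
        · exact Or.inr (Submodule.comap_mono h)
      obtain ⟨b', hb'⟩ := ih _ hcard U C'' rfl hchain (finrank F U) rfl
      obtain ⟨U', hUU'⟩ := Submodule.exists_isCompl U
      have hdim : finrank F U + finrank F U' = n := by
        rw [← hn]
        exact Submodule.finrank_add_eq_of_isCompl hUU'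
      let b'' : Basis (Fin (finrank F U')) F U' := Module.finBasis F U'
      let e : Fin (finrank F U) ⊕ Fin (finrank F U') ≃ Fin n :=
        finSumFinEquiv.trans (finCongr hdim)
      let b : Basis (Fin n) F V :=
        ((b'.prod b'').map (Submodule.prodEquivOfIsCompl U U' hUU')).reindex e
      have hb1 : ∀ i : Fin (finrank F U), b (e (Sum.inl i)) = (b' i : V) := by
        intro i
        simp [b]
      have he1 : ∀ i : Fin (finrank F U), (e (Sum.inl i)).val = i.val := by
        intro i
        simp [e]
      have he2 : ∀ i : Fin (finrank F U'), (e (Sum.inr i)).val = finrank F U + i.val := by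
        intro i
        simp [e]
      -- spans of initial segments contained in `U`
      have key : ∀ d : ℕ, d ≤ finrank F U → Submodule.span F (b '' {i | i.val < d}) =
          (Submodule.span F (b' '' {i | i.val < d})).map U.subtype := by
        intro d hd
        rw [Submodule.map_span]
        congr 1
        ext v
        constructor
        · rintro ⟨i, hi, rfl⟩
          obtain ⟨j, rfl⟩ := e.surjective i
          rcases j with j | j
          · refine ⟨b' j, ⟨j, ?_, rfl⟩, (hb1 j).symm⟩
            have : (e (Sum.inl j)).val < d := hi
            rwa [he1] at this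
          · exfalso
            have : (e (Sum.inr j)).val < d := hi
            rw [he2] at this
            omega
        · rintro ⟨_, ⟨i, hi, rfl⟩, rfl⟩
          refine ⟨e (Sum.inl i), ?_, hb1 i⟩
          change (e (Sum.inl i)).val < d
          rw [he1]
          exact hi
      refine ⟨b, ?_⟩
      intro W hW
      by_cases hWU : W = U
      · subst hWU
        rw [key _ le_rfl]
        have h1 : b' '' {i | i.val < finrank F W} = Set.range b' := by
          rw [← Set.image_univ]
          congr 1
          ext i
          simp
        rw [h1, b'.span_eq, Submodule.map_top, Submodule.range_subtype]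
      · have hWC : W ∈ C' := Finset.mem_erase.mpr ⟨hWU, hW⟩
        have hle : W ≤ U := hmax W hW
        have h1 := hb' (W.comap U.subtype) (Finset.mem_image_of_mem _ hWC)
        have h2 : finrank F (W.comap U.subtype) = finrank F W :=
          LinearEquiv.finrank_eq (Submodule.comapSubtypeEquivOfLe hle)
        rw [h2] at h1
        rw [key _ (Submodule.finrank_mono hle), ← h1, Submodule.map_comap_subtype,
          inf_eq_right.mpr hle]

end Cfsg.Agent.H140.Adapt
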