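import Mathlib
import Cfsg.Prelude.Def_LinearParabolics
import Cfsg.Agent.H140.Adapt

/-!
# Flags of `F ^ n` fixed by a matrix and permutation characters
-/

set_option autoImplicit false

namespace Cfsg.Agent.H140.Flags

open Module Matrix

open scoped MatrixGroups

/-- Fixed points on cosets. -/
theorem card_fixedBy {G Z : Type*} [Group G] (P : Subgroup G) (θ : G → Z)
    (hθ : ∀ g h, θ g = θ h ↔ g⁻¹ * h ∈ P) (x : G) :
    Nat.card (MulAction.fixedBy (G ⧸ P) x) = Nat.card {z : Z // ∃ g, θ g = z ∧ θ (x * g) = z} := by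
  let ψ : G ⧸ P → Z := Quotient.lift θ (fun g h hgh => by
    rw [hθ]
    exact QuotientGroup.leftRel_apply.mp hgh)
  have hψ : ∀ g : G, ψ (g : G ⧸ P) = θ g := fun g => rfl
  have hinj : Function.Injective ψ := by
    intro a b hab
    induction a using QuotientGroup.induction_on with
    | H g =>
      induction b using QuotientGroup.induction_on with
      | H h =>
        rw [hψ, hψ, hθ] at hab
        exact QuotientGroup.eq.mpr hab
  have hfix : ∀ g : G, x • (g : G ⧸ P) = (g : G ⧸ P) ↔ θ (x * g) = θ g := by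
    intro g
    rw [MulAction.Quotient.smul_coe, smul_eq_mul]
    rw [← hψ, ← hψ g]
    exact hinj.eq_iff.symm
  refine Nat.card_congr (Equiv.ofBijective (fun c => ⟨ψ c.1, ?_⟩) ⟨?_, ?_⟩)
  · obtain ⟨c, hc⟩ := c
    induction c using QuotientGroup.induction_on with
    | H g =>
      rw [MulAction.mem_fixedBy] at hc
      exact ⟨g, rfl, (hfix g).mp hc⟩
  · intro a b hab
    exact Subtype.ext (hinj (congrArg Subtype.val hab))
  · rintro ⟨z, g, rfl, h⟩
    refine ⟨⟨(g : G ⧸ P), ?_⟩, Subtype.ext (hψ g)⟩
    rw [MulAction.mem_fixedBy]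
    exact (hfix g).mpr h

section act

variable {n : ℕ} {F : Type*} [Field F]

/-- the action of a matrix on subspaces -/
def act (g : GL (Fin n) F) (W : Submodule F (Fin n → F)) : Submodule F (Fin n → F) :=
  W.map (Matrix.toLin' (g : Matrix (Fin n) (Fin n) F))

theorem act_one (W : Submodule F (Fin n → F)) : act 1 W = W := by
  unfold act
  rw [Units.val_one, Matrix.toLin'_one, Submodule.map_id]

theorem act_mul (g h : GL (Fin n) F) (W : Submodule F (Fin n → F)) :
    act (g * h) W = act g (act h W) := by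
  unfold act
  rw [Units.val_mul, Matrix.toLin'_mul, Submodule.map_comp]

theorem act_inv_act (g : GL (Fin n) F) (W : Submodule F (Fin n → F)) : act g⁻¹ (act g W) = W := by
  rw [← act_mul, inv_mul_cancel, act_one]

theorem act_injective (g : GL (Fin n) F) : Function.Injective (act g) := fun A B h => by
  rw [← act_inv_act g A, h, act_inv_act]

theorem act_mono (g : GL (Fin n) F) {A B : Submodule F (Fin n → F)} (h : A ≤ B) :
    act g A ≤ act g B := Submodule.map_mono h

theorem toLin_injective (g : GL (Fin n) F) :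
    Function.Injective (Matrix.toLin' (g : Matrix (Fin n) (Fin n) F)) := by
  intro v w h
  have h2 := congrArg (Matrix.toLin' ((g⁻¹ : GL (Fin n) F) : Matrix (Fin n) (Fin n) F)) h
  rw [← LinearMap.comp_apply, ← LinearMap.comp_apply, ← Matrix.toLin'_mul, ← Units.val_mul,
    inv_mul_cancel, Units.val_one, Matrix.toLin'_one] at h2
  exact h2

theorem finrank_act (g : GL (Fin n) F) (W : Submodule F (Fin n → F)) :
    finrank F (act g W) = finrank F W :=
  (LinearEquiv.finrank_eq (Submodule.equivMapOfInjective _ (toLin_injective g) W)).symm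

variable (n F) in
/-- the standard subspaces -/
def std (d : ℕ) : Submodule F (Fin n → F) := Submodule.span F ((Pi.basisFun F (Fin n)) '' {i | i.val < d})

theorem std_mono {c d : ℕ} (h : c ≤ d) : std n F c ≤ std n F d := by
  apply Submodule.span_mono
  apply Set.image_mono
  intro i hi
  exact lt_of_lt_of_le hi h

theorem finrank_std {d : ℕ} (hd : d ≤ n) : finrank F (std n F d) = d := by
  classical
  unfold std
  have h1 : LinearIndependent F (fun i : {i : Fin n | i.val < d} => (Pi.basisFun F (Fin n)) i) :=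
    (Pi.basisFun F (Fin n)).linearIndependent.comp _ Subtype.val_injective
  have h2 := finrank_span_eq_card h1
  have h3 : Set.range (fun i : {i : Fin n | i.val < d} => (Pi.basisFun F (Fin n)) i) =
      (Pi.basisFun F (Fin n)) '' {i | i.val < d} := by
    ext v
    simp
  rw [h3] at h2
  rw [h2, Fintype.card_subtype]
  have h4 : (Finset.univ.filter fun i : Fin n => i ∈ {i : Fin n | i.val < d}).card =
      (Finset.univ.filter fun i : Fin n => i.val < d).card := by
    congr 1
  rw [h4, Fin.card_filter_val_lt, min_eq_right hd]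

theorem mem_std {d : ℕ} {v : Fin n → F} : v ∈ std n F d ↔ ∀ i : Fin n, d ≤ i.val → v i = 0 := by
  classical
  unfold std
  constructor
  · intro hv i hi
    induction hv using Submodule.span_induction with
    | mem v hv =>
      obtain ⟨j, hj, rfl⟩ := hv
      rw [Pi.basisFun_apply, Pi.single_apply, if_neg]
      rintro rfl
      exact absurd hi (not_le.mpr hj)
    | zero => rfl
    | add v w _ _ h1 h2 => rw [Pi.add_apply, h1, h2, add_zero]
    | smul c v _ h1 => rw [Pi.smul_apply, h1, smul_zero]
  · intro hv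
    rw [← (Pi.basisFun F (Fin n)).sum_repr v]
    apply Submodule.sum_mem
    intro i _
    by_cases hi : i.val < d
    · exact Submodule.smul_mem _ _ (Submodule.subset_span ⟨i, hi, rfl⟩)
    · rw [Pi.basisFun_repr, hv i (not_lt.mp hi), zero_smul]
      exact Submodule.zero_mem _

theorem act_std_le_iff (g : GL (Fin n) F) (d : ℕ) : act g (std n F d) ≤ std n F d ↔
    ∀ i j : Fin n, d ≤ i.val → j.val < d → (g : Matrix (Fin n) (Fin n) F) i j = 0 := by
  classical
  unfold act
  constructor
  · intro h i j hi hj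
    have h1 : (Pi.basisFun F (Fin n)) j ∈ std n F d := Submodule.subset_span ⟨j, hj, rfl⟩
    have h2 := mem_std.mp (h ⟨_, h1, rfl⟩) i hi
    rw [Pi.basisFun_apply, Matrix.toLin'_apply, Matrix.mulVec_single_one] at h2
    exact h2
  · intro h
    unfold std
    rw [Submodule.map_span, Submodule.span_le]
    rintro _ ⟨_, ⟨j, hj, rfl⟩, rfl⟩
    change _ ∈ std n F d
    rw [mem_std]
    intro i hi
    rw [Pi.basisFun_apply, Matrix.toLin'_apply, Matrix.mulVec_single_one]
    exact h i j hi hj

theorem act_std_eq_iff (g : GL (Fin n) F) (d : ℕ) : act g (std n F d) = std n F d ↔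
    ∀ i j : Fin n, d ≤ i.val → j.val < d → (g : Matrix (Fin n) (Fin n) F) i j = 0 := by
  rw [← act_std_le_iff]
  constructor
  · exact fun h => h.le
  · intro h
    exact Submodule.eq_of_le_of_finrank_eq h (finrank_act g _)

/-- the matrix of a basis -/
theorem exists_matrix (b : Basis (Fin n) F (Fin n → F)) : ∃ g : GL (Fin n) F,
    ∀ d, act g (std n F d) = Submodule.span F (b '' {i | i.val < d}) := by
  classical
  let f : (Fin n → F) ≃ₗ[F] (Fin n → F) := (Pi.basisFun F (Fin n)).equiv b (Equiv.refl _)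
  refine ⟨⟨LinearMap.toMatrix' (f : (Fin n → F) →ₗ[F] (Fin n → F)),
    LinearMap.toMatrix' (f.symm : (Fin n → F) →ₗ[F] (Fin n → F)), ?_, ?_⟩, ?_⟩
  · rw [← LinearMap.toMatrix'_comp, LinearEquiv.comp_symm, LinearMap.toMatrix'_id]
  · rw [← LinearMap.toMatrix'_comp, LinearEquiv.symm_comp, LinearMap.toMatrix'_id]
  · intro d
    unfold act std
    change Submodule.map (Matrix.toLin' (LinearMap.toMatrix' (f : (Fin n → F) →ₗ[F] (Fin n → F)))) _ = _
    rw [Matrix.toLin'_toMatrix', Submodule.map_span, Set.image_image]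
    congr 1
    apply Set.image_congr
    intro i _
    exact (Pi.basisFun F (Fin n)).equiv_apply i b (Equiv.refl _)

/-- the flag of a matrix -/
noncomputable def flag (E : Finset ℕ) (g : GL (Fin n) F) : Finset (Submodule F (Fin n → F)) := by
  classical
  exact E.image fun d => act g (std n F d)

theorem mem_flag {E : Finset ℕ} {g : GL (Fin n) F} {W : Submodule F (Fin n → F)} :
    W ∈ flag E g ↔ ∃ d ∈ E, act g (std n F d) = W := by
  classical
  unfold flag
  rw [Finset.mem_image]

theorem flag_eq_iff {E : Finset ℕ} (hE : ∀ d ∈ E, d ≤ n) {g h : GL (Fin n) F} :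
    flag E g = flag E h ↔ ∀ d ∈ E, act g (std n F d) = act h (std n F d) := by
  constructor
  · intro hgh d hd
    have h1 : act g (std n F d) ∈ flag E g := mem_flag.mpr ⟨d, hd, rfl⟩
    rw [hgh, mem_flag] at h1
    obtain ⟨c, hc, h2⟩ := h1
    have h3 := congrArg (fun W : Submodule F (Fin n → F) => finrank F W) h2
    simp only [finrank_act, finrank_std (hE c hc), finrank_std (hE d hd)] at h3
    rw [h3] at h2
    exact h2.symm
  · intro hgh
    ext W
    rw [mem_flag, mem_flag]
    constructor
    · rintro ⟨d, hd, rfl⟩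
      exact ⟨d, hd, (hgh d hd).symm⟩
    · rintro ⟨d, hd, rfl⟩
      exact ⟨d, hd, hgh d hd⟩

theorem flag_eq_iff' {E : Finset ℕ} (hE : ∀ d ∈ E, d ≤ n) {g h : GL (Fin n) F} :
    flag E g = flag E h ↔ ∀ d ∈ E, act (g⁻¹ * h) (std n F d) = std n F d := by
  rw [flag_eq_iff hE]
  constructor
  · intro H d hd
    rw [act_mul, ← H d hd, act_inv_act]
  · intro H d hd
    have h1 := H d hd
    rw [act_mul] at h1
    have h2 := congrArg (act g) h1
    rw [← act_mul, mul_inv_cancel, act_one] at h2
    exact h2.symm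

/-- chains of type `E` stable under `x` -/
def IsFlag (E : Finset ℕ) (x : GL (Fin n) F) (C : Finset (Submodule F (Fin n → F))) : Prop :=
  IsChain (· ≤ ·) (C : Set (Submodule F (Fin n → F))) ∧ (∀ W ∈ C, finrank F W ∈ E) ∧
    (∀ d ∈ E, ∃ W ∈ C, finrank F W = d) ∧ ∀ W ∈ C, act x W = W

theorem exists_flag_iff {E : Finset ℕ} (hE : ∀ d ∈ E, d ≤ n) (x : GL (Fin n) F)
    (C : Finset (Submodule F (Fin n → F))) :
    (∃ g, flag E g = C ∧ flag E (x * g) = C) ↔ IsFlag E x C := by
  constructor
  · rintro ⟨g, rfl, hx⟩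
    rw [flag_eq_iff hE] at hx
    refine ⟨?_, ?_, ?_, ?_⟩
    · intro A hA B hB _
      rw [Finset.mem_coe, mem_flag] at hA hB
      obtain ⟨c, hc, rfl⟩ := hA
      obtain ⟨d, hd, rfl⟩ := hB
      rcases le_total c d with h | h
      · exact Or.inl (act_mono g (std_mono h))
      · exact Or.inr (act_mono g (std_mono h))
    · intro W hW
      rw [mem_flag] at hW
      obtain ⟨d, hd, rfl⟩ := hW
      rwa [finrank_act, finrank_std (hE d hd)]
    · intro d hd
      exact ⟨_, mem_flag.mpr ⟨d, hd, rfl⟩, by rw [finrank_act, finrank_std (hE d hd)]⟩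
    · intro W hW
      rw [mem_flag] at hW
      obtain ⟨d, hd, rfl⟩ := hW
      rw [← act_mul]
      exact hx d hd
  · rintro ⟨hC, h1, h2, h3⟩
    obtain ⟨b, hb⟩ := Cfsg.Agent.H140.Adapt.exists_basis (F := F) C.card (Fin n → F) C rfl hC n
      (by simp)
    obtain ⟨g, hg⟩ := exists_matrix b
    have hgC : flag E g = C := by
      ext W
      rw [mem_flag]
      constructor
      · rintro ⟨d, hd, rfl⟩
        obtain ⟨W, hW, hWd⟩ := h2 d hd
        rw [hg, ← hWd, ← hb W hW]
        exact hW
      · intro hW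
        exact ⟨_, h1 W hW, by rw [hg, ← hb W hW]⟩
    refine ⟨g, hgC, ?_⟩
    rw [← hgC, flag_eq_iff hE]
    intro d hd
    rw [act_mul]
    apply h3
    rw [← hgC, mem_flag]
    exact ⟨d, hd, rfl⟩

/-- **The number of fixed cosets of a standard parabolic subgroup.** -/
theorem card_fixedBy_eq {E : Finset ℕ} (hE : ∀ d ∈ E, d ≤ n) (P : Subgroup (GL (Fin n) F))
    (hP : ∀ g, g ∈ P ↔ ∀ d ∈ E, act g (std n F d) = std n F d) (x : GL (Fin n) F) :
    Nat.card (MulAction.fixedBy (GL (Fin n) F ⧸ P) x) =
      Nat.card {C : Finset (Submodule F (Fin n → F)) // IsFlag E x C} := by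
  rw [card_fixedBy P (flag E) (fun g h => by rw [flag_eq_iff' hE, hP]) x]
  exact Nat.card_congr (Equiv.subtypeEquivRight fun C => exists_flag_iff hE x C)

end act

end Cfsg.Agent.H140.Flags
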