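import Mathlib
import Cfsg.Agent.HKS.SLRel
import Cfsg.Agent.LieClassical.SLTwoUnipotent

/-!
# The rank-one Steinberg presentation over a finite field

`PRel T L`: `T`, `L : k → G` additive with `w(s) T(r) w(s)⁻¹ = L(-s⁻² r)`.  If `G` is generated by the `T r`, `L r`
and `k` is finite then there is a homomorphism `SL₂(k) → G` with `[[1, s], [0, 1]] ↦ T s`, `[[1, 0], [s, 1]] ↦ L s`.
-/

set_option autoImplicit false

namespace Cfsg.Agent.H140.Pres

open Cfsg.Agent.ONan.SL2Hom Cfsg.Agent.HKS.SLRel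

variable {G k : Type*} [Group G] [Field k]

/-- The relations. -/
structure PRel (T L : k → G) : Prop where
  T_add : ∀ a b, T (a + b) = T a * T b
  L_add : ∀ a b, L (a + b) = L a * L b
  wT : ∀ s, s ≠ 0 → ∀ r, wS T L s * T r = L (-(s⁻¹ ^ 2 * r)) * wS T L s

variable {T L : k → G}

namespace PRel

variable (R : PRel T L)

include R

theorem T_zero : T 0 = 1 := by
  have h := R.T_add 0 0
  rw [add_zero] at h
  exact mul_eq_left.mp h.symm

theorem L_zero : L 0 = 1 := by
  have h := R.L_add 0 0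
  rw [add_zero] at h
  exact mul_eq_left.mp h.symm

theorem T_neg (a : k) : T (-a) = (T a)⁻¹ := by
  apply eq_inv_of_mul_eq_one_left
  rw [← R.T_add, neg_add_cancel, R.T_zero]

theorem L_neg (a : k) : L (-a) = (L a)⁻¹ := by
  apply eq_inv_of_mul_eq_one_left
  rw [← R.L_add, neg_add_cancel, R.L_zero]

theorem w_neg (s : k) : wS T L (-s) = (wS T L s)⁻¹ := by
  unfold wS
  rw [R.T_neg, inv_neg, neg_neg, R.L_neg]
  group

theorem wL (s : k) (hs : s ≠ 0) (r : k) : wS T L s * L r = T (-(s ^ 2 * r)) * wS T L s := by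
  have h := R.wT (-s) (neg_ne_zero.mpr hs) (-(s ^ 2 * r))
  have e : -((-s)⁻¹ ^ 2 * -(s ^ 2 * r)) = r := by
    rw [inv_neg]
    field_simp
  rw [e, R.w_neg] at h
  -- `w⁻¹ T = L r w⁻¹`
  calc wS T L s * L r = wS T L s * (L r * (wS T L s)⁻¹) * wS T L s := by group
    _ = wS T L s * ((wS T L s)⁻¹ * T (-(s ^ 2 * r))) * wS T L s := by rw [h]
    _ = T (-(s ^ 2 * r)) * wS T L s := by group

theorem n_T {r : k} (hr : r ≠ 0) (s : k) :
    nS T L r * T s = T (r ^ 2 * s) * nS T L r := by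
  have h1 := R.wT (-1) (neg_ne_zero.mpr one_ne_zero) s
  have e1 : -((-1 : k)⁻¹ ^ 2 * s) = -s := by
    rw [inv_neg, inv_one]; ring
  rw [e1] at h1
  have h2 := R.wL r hr (-s)
  have e2 : -(r ^ 2 * -s) = r ^ 2 * s := by ring
  rw [e2] at h2
  unfold nS
  calc wS T L r * wS T L (-1) * T s = wS T L r * (wS T L (-1) * T s) := by group
    _ = (wS T L r * L (-s)) * wS T L (-1) := by rw [h1]; group
    _ = _ := by rw [h2]; group

theorem n_L {r : k} (hr : r ≠ 0) (s : k) :
    nS T L r * L s = L (r⁻¹ ^ 2 * s) * nS T L r := by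
  have h1 := R.wL (-1) (neg_ne_zero.mpr one_ne_zero) s
  have e1 : -((-1 : k) ^ 2 * s) = -s := by ring
  rw [e1] at h1
  have h2 := R.wT r hr (-s)
  have e2 : -(r⁻¹ ^ 2 * -s) = r⁻¹ ^ 2 * s := by ring
  rw [e2] at h2
  unfold nS
  calc wS T L r * wS T L (-1) * L s = wS T L r * (wS T L (-1) * L s) := by group
    _ = (wS T L r * T (-s)) * wS T L (-1) := by rw [h1]; group
    _ = _ := by rw [h2]; group

theorem central (hgen : Subgroup.closure (Set.range T ∪ Set.range L) = ⊤) {r s : k} (hr : r ≠ 0)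
    (hs : s ≠ 0) : nS T L r * nS T L s * (nS T L (r * s))⁻¹ ∈ Subgroup.center G := by
  have hrs : r * s ≠ 0 := mul_ne_zero hr hs
  set c := nS T L r * nS T L s * (nS T L (r * s))⁻¹ with hc
  have hT : ∀ u, c * T u = T u * c := by
    intro u
    have h1 := R.n_T hr (s ^ 2 * ((r * s)⁻¹ ^ 2 * u))
    have h2 := R.n_T hs ((r * s)⁻¹ ^ 2 * u)
    have h3 := R.n_T hrs ((r * s)⁻¹ ^ 2 * u)
    have e3 : (r * s) ^ 2 * ((r * s)⁻¹ ^ 2 * u) = u := by field_simp
    have e1 : r ^ 2 * (s ^ 2 * ((r * s)⁻¹ ^ 2 * u)) = u := by field_simp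
    rw [e3] at h3
    rw [e1] at h1
    calc c * T u = nS T L r * nS T L s * ((nS T L (r * s))⁻¹ * (T u * nS T L (r * s))) *
          (nS T L (r * s))⁻¹ := by rw [hc]; group
      _ = nS T L r * (nS T L s * T ((r * s)⁻¹ ^ 2 * u)) * (nS T L (r * s))⁻¹ := by
          rw [← h3]; group
      _ = (nS T L r * T (s ^ 2 * ((r * s)⁻¹ ^ 2 * u))) * nS T L s * (nS T L (r * s))⁻¹ := by
          rw [h2]; group
      _ = T u * c := by rw [h1, hc]; group
  have hL : ∀ u, c * L u = L u * c := by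
    intro u
    have h1 := R.n_L hr (s⁻¹ ^ 2 * ((r * s) ^ 2 * u))
    have h2 := R.n_L hs ((r * s) ^ 2 * u)
    have h3 := R.n_L hrs ((r * s) ^ 2 * u)
    have e3 : (r * s)⁻¹ ^ 2 * ((r * s) ^ 2 * u) = u := by field_simp
    have e1 : r⁻¹ ^ 2 * (s⁻¹ ^ 2 * ((r * s) ^ 2 * u)) = u := by field_simp
    rw [e3] at h3
    rw [e1] at h1
    calc c * L u = nS T L r * nS T L s * ((nS T L (r * s))⁻¹ * (L u * nS T L (r * s))) *
          (nS T L (r * s))⁻¹ := by rw [hc]; group
      _ = nS T L r * (nS T L s * L ((r * s) ^ 2 * u)) * (nS T L (r * s))⁻¹ := by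
          rw [← h3]; group
      _ = (nS T L r * L (s⁻¹ ^ 2 * ((r * s) ^ 2 * u))) * nS T L s * (nS T L (r * s))⁻¹ := by
          rw [h2]; group
      _ = L u * c := by rw [h1, hc]; group
  have hle : Subgroup.closure (Set.range T ∪ Set.range L) ≤ Subgroup.centralizer {c} := by
    rw [Subgroup.closure_le]
    rintro _ (⟨u, rfl⟩ | ⟨u, rfl⟩)
    · exact Subgroup.mem_centralizer_singleton_iff.mpr (hT u).symm
    · exact Subgroup.mem_centralizer_singleton_iff.mpr (hL u).symm
  rw [hgen] at hle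
  rw [Subgroup.mem_center_iff]
  intro g
  exact Subgroup.mem_centralizer_singleton_iff.mp (hle (Subgroup.mem_top g))

theorem n_pow (hgen : Subgroup.closure (Set.range T ∪ Set.range L) = ⊤) {v : k} (hv : v ≠ 0)
    (n : ℕ) : ∃ z ∈ Subgroup.center G, nS T L (v ^ n) = z * nS T L v ^ n := by
  induction n with
  | zero =>
    refine ⟨1, Subgroup.one_mem _, ?_⟩
    rw [pow_zero, pow_zero, mul_one]
    have h := R.w_neg 1
    unfold nS
    rw [h, mul_inv_cancel]
  | succ n ih =>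
    obtain ⟨z, hz, h⟩ := ih
    have hc := R.central hgen (pow_ne_zero n hv) hv
    refine ⟨(nS T L (v ^ n) * nS T L v * (nS T L (v ^ n * v))⁻¹)⁻¹ * z,
      mul_mem (inv_mem hc) hz, ?_⟩
    rw [pow_succ, pow_succ]
    rw [h]
    group

theorem comm [Finite k] (hgen : Subgroup.closure (Set.range T ∪ Set.range L) = ⊤) (r s : k)
    (hr : r ≠ 0) (hs : s ≠ 0) : nS T L r * nS T L s = nS T L s * nS T L r := by
  obtain ⟨v, hv⟩ := IsCyclic.exists_generator (α := kˣ)
  have key : ∀ x : k, x ≠ 0 → ∃ n : ℕ, (v : k) ^ n = x := by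
    intro x hx
    obtain ⟨n, hn⟩ := mem_powers_iff_mem_zpowers.mpr (hv (Units.mk0 x hx))
    refine ⟨n, ?_⟩
    have := congrArg Units.val hn
    simpa using this
  obtain ⟨m, rfl⟩ := key r hr
  obtain ⟨n, rfl⟩ := key s hs
  obtain ⟨z, hz, h1⟩ := R.n_pow hgen v.ne_zero m
  obtain ⟨z', hz', h2⟩ := R.n_pow hgen v.ne_zero n
  rw [Subgroup.mem_center_iff] at hz hz'
  rw [h1, h2]
  calc z * nS T L (v : k) ^ m * (z' * nS T L (v : k) ^ n)
      = z * (nS T L (v : k) ^ m * z') * nS T L (v : k) ^ n := by group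
    _ = z * (z' * nS T L (v : k) ^ m) * nS T L (v : k) ^ n := by rw [hz']
    _ = (z * z') * (nS T L (v : k) ^ m * nS T L (v : k) ^ n) := by group
    _ = (z' * z) * (nS T L (v : k) ^ n * nS T L (v : k) ^ m) := by
        rw [← pow_add, ← pow_add, add_comm m n, hz z']
    _ = z' * (z * nS T L (v : k) ^ n) * nS T L (v : k) ^ m := by group
    _ = z' * (nS T L (v : k) ^ n * z) * nS T L (v : k) ^ m := by rw [hz]
    _ = z' * nS T L (v : k) ^ n * (z * nS T L (v : k) ^ m) := by group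

theorem srel [Finite k] (hgen : Subgroup.closure (Set.range T ∪ Set.range L) = ⊤) : SRel T L where
  T_add := R.T_add
  L_add := R.L_add
  wT := R.wT
  wL := R.wL
  comm := R.comm hgen

end PRel

/-- multiplicativity in the even case -/
theorem n_mul_even [Finite k] (h2 : (2 : k) = 0) (R : SRel T L) {r s : k} (hr : r ≠ 0)
    (hs : s ≠ 0) : nS T L (r * s) = nS T L r * nS T L s := by
  have := Fintype.ofFinite k
  have h1 : IsSquare r := by
    apply FiniteField.isSquare_of_char_two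
    have h3 : CharP k 2 := CharTwo.of_one_ne_zero_of_two_eq_zero one_ne_zero h2
    exact ringChar.eq k 2
  obtain ⟨a, rfl⟩ := h1
  have ha : a ≠ 0 := left_ne_zero_of_mul hr
  rw [← pow_two] at hr ⊢
  rw [R.n_sq ha hs, R.comm s _ hs hr]

/-- **The relations of `ONan.SL2Hom`.** -/
theorem rel' (hmul : ∀ r s : k, r ≠ 0 → s ≠ 0 → nS T L (r * s) = nS T L r * nS T L s)
    (R : SRel T L) : Rel T (nS T L) (wS T L (-1)) 1 where
  c_ne := one_ne_zero
  T_add := R.T_add
  ν_mul r s hr hs := hmul r s hr hs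
  ν_T r s hr := R.n_T hr s
  m_ν r hr := by
    have h1 := R.w_w (s := -1) (r := r) (neg_ne_zero.mpr one_ne_zero) hr
    rw [neg_one_sq, one_div] at h1
    unfold nS
    rw [← mul_assoc, h1]
  m_m := rfl
  m_T_m a ha := by
    have h0 : (1 : k) / a ≠ 0 := one_div_ne_zero ha
    rw [R.n_T h0]
    have h1 := R.wT (-1) (neg_ne_zero.mpr one_ne_zero) a
    have e1 : -((-1 : k)⁻¹ ^ 2 * a) = -a := by
      rw [inv_neg, inv_one]; ring
    rw [e1] at h1
    have e2 : (1 / a) ^ 2 * -a = -(1 / a) := by field_simp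
    have h2 : nS T L (-1) * T (-(1 / a)) = T (-(1 / a)) * nS T L (-1) := by
      rw [R.n_T (neg_ne_zero.mpr one_ne_zero)]
      congr 2
      ring
    rw [e2, h1, one_pow]
    have h3 : nS T L (1 / a) * wS T L (-1) = wS T L (1 / a) * nS T L (-1) := by
      show wS T L (1 / a) * wS T L (-1) * wS T L (-1) = wS T L (1 / a) * (wS T L (-1) * wS T L (-1))
      group
    calc L (-a) * wS T L (-1) * wS T L (-1) = L (-a) * nS T L (-1) := by rw [mul_assoc]; rfl
      _ = T (-(1 / a)) * wS T L (1 / a) * T (-(1 / a)) * nS T L (-1) := by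
          have h4 : wS T L (1 / a) = T (1 / a) * L (-a) * T (1 / a) := by
            unfold wS
            rw [one_div, inv_inv]
          rw [h4, R.T_neg]; group
      _ = T (-(1 / a)) * wS T L (1 / a) * (nS T L (-1) * T (-(1 / a))) := by rw [h2]; group
      _ = T (-(1 / a)) * (nS T L (1 / a) * wS T L (-1)) * T (-(1 / a)) := by rw [h3]; group
      _ = _ := by group

/-- **The homomorphism from `SL₂(k)`.** -/
theorem exists_hom [Finite k] (R : SRel T L) :
    ∃ φ : Matrix.SpecialLinearGroup (Fin 2) k →* G, (∀ s, φ (tM s) = T s) ∧ (∀ s, φ (lM s) = L s) := by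
  have hmul : ∀ r s : k, r ≠ 0 → s ≠ 0 → nS T L (r * s) = nS T L r * nS T L s := by
    intro r s hr hs
    by_cases h2 : (2 : k) = 0
    · exact n_mul_even h2 R hr hs
    · refine R.n_mul ?_ hr hs
      have := Fintype.ofFinite k
      rw [Nat.card_eq_fintype_card]
      by_contra hodd
      rw [Nat.not_odd_iff_even, even_iff_two_dvd] at hodd
      obtain ⟨p, hp⟩ := CharP.exists k
      obtain ⟨n, hp', hn⟩ := FiniteField.card k p
      rw [hn] at hodd
      have h3 := (Nat.prime_dvd_prime_iff_eq Nat.prime_two hp').mp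
        (Nat.prime_two.dvd_of_dvd_pow hodd)
      apply h2
      have := (CharP.cast_eq_zero_iff k p 2).mpr (by rw [h3])
      exact_mod_cast this
  refine ⟨(rel' hmul R).hom, fun s => (rel' hmul R).hom_tM s, fun s => ?_⟩
  rw [lM_eq, map_mul, map_mul, map_inv, (rel' hmul R).hom_tM, (rel' hmul R).hom_mM,
    R.wT (-1) (neg_ne_zero.mpr one_ne_zero)]
  have e1 : -((-1 : k)⁻¹ ^ 2 * -s) = s := by
    rw [inv_neg, inv_one]; ring
  rw [e1, mul_assoc, mul_inv_cancel, mul_one]

end Cfsg.Agent.H140.Pres
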