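import Mathlib
import Cfsg.Agent.H140.Moebius

/-!
# The Möbius function of the lattice of submodules of a finite semisimple `F[X]`-module

`HasType l M`: `M` is a direct sum of modules `F[X] / (f)`, `f ∈ l`.
* `card_hom`: `|Hom(M, F[X] / (f))| = |F[X] / (f)| ^ (l.count f)`;
* `mu_top`: `mu (⊤ : Submodule F[X] M) = val l`;
* `exists_type`: finite semisimple modules have a type;
* `charpoly_eq`: the characteristic polynomial of `X` on `M` is the product of `l`.
-/

set_option autoImplicit false

namespace Cfsg.Agent.H140.SemiMu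

open Polynomial Cfsg.Agent.H140.Moebius

universe u

section general

variable {R : Type*} [CommRing R] {M : Type*} [AddCommGroup M] [Module R M]

noncomputable instance fintypeSubmodule (R : Type*) [CommRing R] (M : Type*) [AddCommGroup M]
    [Module R M] [Finite M] : Fintype (Submodule R M) := Fintype.ofFinite _

/-- the Möbius number of a finite module -/
noncomputable def muM (R : Type*) [CommRing R] (M : Type*) [AddCommGroup M]
    [Module R M] [Finite M] : ℤ := mu (⊤ : Submodule R M)

theorem mu_submodule [Finite M] (y : Submodule R M) : mu y = muM R y := by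
  have h := mu_map (P := Submodule R y) (Q := Submodule R M) (fun N => N.map y.subtype)
    (fun a b => Submodule.map_le_map_iff_of_injective y.subtype_injective a b) (Submodule.map_bot _)
    (by
      intro a b hb
      refine ⟨b.comap y.subtype, ?_⟩
      rw [Submodule.map_comap_subtype, inf_eq_right]
      exact hb.trans (Submodule.map_subtype_le _ _)) ⊤
  rw [Submodule.map_top, Submodule.range_subtype] at h
  exact h

theorem muM_congr {N : Type*} [AddCommGroup N] [Module R N] [Finite M] [Finite N]
    (e : M ≃ₗ[R] N) : muM R M = muM R N := by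
  have h := mu_map (P := Submodule R M) (Q := Submodule R N) (fun K => K.map (e : M →ₗ[R] N))
    (fun a b => Submodule.map_le_map_iff_of_injective e.injective a b) (Submodule.map_bot _)
    (by
      intro a b _
      refine ⟨b.comap (e : M →ₗ[R] N), ?_⟩
      exact Submodule.map_comap_eq_of_surjective e.surjective b) ⊤
  rw [Submodule.map_top, LinearMap.range_eq_top.mpr e.surjective] at h
  exact h.symm

theorem muM_of_subsingleton [Finite M] [Subsingleton M] : muM R M = 1 := by
  unfold muM
  rw [Subsingleton.elim (⊤ : Submodule R M) ⊥, mu_bot]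

/-- The number of complements. -/
theorem card_compl {s y : Submodule R M} (h : IsCompl s y) :
    Nat.card {q : Submodule R M // IsCompl s q} = Nat.card (y →ₗ[R] s) := by
  rw [Nat.card_congr s.isComplEquivProj]
  refine Nat.card_congr ⟨fun f => f.1.comp y.subtype, fun g =>
    ⟨LinearMap.ofIsCompl h LinearMap.id g, fun x => by
      rw [LinearMap.ofIsCompl_apply_left]; rfl⟩, ?_, ?_⟩
  · rintro ⟨f, hf⟩
    apply Subtype.ext
    refine LinearMap.ofIsCompl_eq h ?_ ?_
    · intro x
      exact (hf x).symm
    · intro x
      rfl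
  · intro g
    ext x
    simp

/-- **Weisner's theorem for a simple submodule.** -/
theorem muM_eq [Finite M] {s y : Submodule R M} (h : IsCompl s y) (hs : IsSimpleModule R s) :
    muM R M = - (Nat.card (y →ₗ[R] s) : ℤ) * muM R y := by
  classical
  have hatom : IsAtom s := isSimpleModule_iff_isAtom.mp hs
  have hw : ∑ y ∈ Finset.univ.filter (fun y : Submodule R M => y ⊔ s = ⊤), mu y = 0 := by
    convert weisner (P := Submodule R M) hatom.1 ⊤ le_top
  have htop : (⊤ : Submodule R M) ∈ Finset.univ.filter (fun y : Submodule R M => y ⊔ s = ⊤) := by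
    simp
  rw [← Finset.add_sum_erase _ _ htop] at hw
  have e : (Finset.univ.filter (fun y : Submodule R M => y ⊔ s = ⊤)).erase ⊤ =
      Finset.univ.filter (fun q : Submodule R M => IsCompl s q) := by
    ext q
    simp only [Finset.mem_erase, Finset.mem_filter, Finset.mem_univ, true_and]
    constructor
    · rintro ⟨hne, hsup⟩
      refine ⟨?_, ?_⟩
      · rw [disjoint_iff]
        rcases hatom.le_iff.mp (inf_le_left : s ⊓ q ≤ s) with h1 | h1
        · exact h1
        · exfalso
          apply hne
          have h2 : s ≤ q := inf_eq_left.mp h1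
          rw [sup_eq_left.mpr h2] at hsup
          exact hsup
      · rw [codisjoint_iff, sup_comm]
        exact hsup
    · intro hq
      refine ⟨?_, ?_⟩
      · rintro rfl
        exact hatom.1 (by simpa using hq.disjoint.eq_bot)
      · rw [sup_comm]
        exact hq.sup_eq_top
  have hsum : ∑ q ∈ Finset.univ.filter (fun q : Submodule R M => IsCompl s q), mu q =
      (Nat.card (y →ₗ[R] s) : ℤ) * muM R y := by
    have h1 : ∀ q ∈ Finset.univ.filter (fun q : Submodule R M => IsCompl s q), mu q = muM R y := by
      intro q hq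
      simp only [Finset.mem_filter, Finset.mem_univ, true_and] at hq
      rw [mu_submodule]
      exact muM_congr ((Submodule.quotientEquivOfIsCompl s q hq).symm.trans
        (Submodule.quotientEquivOfIsCompl s y h))
    rw [Finset.sum_congr rfl h1, Finset.sum_const, nsmul_eq_mul, ← card_compl h,
      Nat.card_eq_fintype_card, Fintype.card_subtype]
  rw [e, hsum] at hw
  have h3 : muM R M = mu (⊤ : Submodule R M) := rfl
  rw [h3]
  linarith

end general

section types

variable {F : Type u} [Field F]

/-- `M` is the direct sum of `F[X] / (f)`, `f ∈ l`. -/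
def HasType {F : Type u} [Field F] : List F[X] → ∀ (M : Type u) [AddCommGroup M] [Module F[X] M], Prop
  | [], M, _, _ => Subsingleton M
  | f :: l, M, _, _ => ∃ s y : Submodule F[X] M, IsCompl s y ∧
      Nonempty (s ≃ₗ[F[X]] (F[X] ⧸ Ideal.span {f})) ∧ HasType l y

/-- the value -/
noncomputable def val {F : Type u} [Field F] [DecidableEq F[X]] (q : ℕ) : List F[X] → ℤ
  | [] => 1
  | f :: l => - ((q : ℤ) ^ f.natDegree) ^ (l.count f) * val q l

theorem card_quot [Finite F] {f : F[X]} (hf : f.Monic) :
    Nat.card (F[X] ⧸ Ideal.span {f}) = Nat.card F ^ f.natDegree := by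
  have h : Module.finrank F (AdjoinRoot f) = f.natDegree := by
    rw [(AdjoinRoot.powerBasis hf.ne_zero).finrank, AdjoinRoot.powerBasis_dim]
  have : Module.Finite F (AdjoinRoot f) := (AdjoinRoot.powerBasis hf.ne_zero).finite
  have h2 := Module.natCard_eq_pow_finrank (K := F) (V := AdjoinRoot f)
  rw [h] at h2
  exact h2

theorem smul_quot (f : F[X]) (a : F[X] ⧸ Ideal.span {f}) : f • a = 0 := by
  obtain ⟨b, rfl⟩ := Ideal.Quotient.mk_surjective a
  rw [← Ideal.Quotient.mk_eq_mk, ← Submodule.Quotient.mk_smul, Submodule.Quotient.mk_eq_zero]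
  exact Ideal.mul_mem_right _ _ (Ideal.mem_span_singleton_self f)

theorem hom_ext {f : F[X]} {N : Type*} [AddCommGroup N] [Module F[X] N]
    {φ ψ : (F[X] ⧸ Ideal.span {f}) →ₗ[F[X]] N} (h : φ 1 = ψ 1) : φ = ψ := by
  apply LinearMap.ext
  intro a
  obtain ⟨b, rfl⟩ := Ideal.Quotient.mk_surjective a
  have e : (Ideal.Quotient.mk (Ideal.span {f})) b = b • (1 : F[X] ⧸ Ideal.span {f}) := by
    rw [← map_one (Ideal.Quotient.mk (Ideal.span {f})), ← Ideal.Quotient.mk_eq_mk,
      ← Ideal.Quotient.mk_eq_mk, ← Submodule.Quotient.mk_smul, smul_eq_mul, mul_one]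
  rw [e, map_smul, map_smul, h]

theorem card_hom_simple [Finite F] {f g : F[X]} (hf : f.Monic) (hg : g.Monic) (hf' : Irreducible f)
    (hg' : Irreducible g) [Decidable (g = f)] :
    Nat.card ((F[X] ⧸ Ideal.span {g}) →ₗ[F[X]] (F[X] ⧸ Ideal.span {f})) =
      if g = f then Nat.card F ^ f.natDegree else 1 := by
  split_ifs with h
  · subst h
    rw [← card_quot hf]
    refine Nat.card_congr ⟨fun φ => φ 1, fun a => (Submodule.liftQ _
      (LinearMap.toSpanSingleton F[X] _ a) (by
        refine Ideal.span_le.mpr ?_
        rintro _ rfl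
        exact smul_quot _ _)), ?_, ?_⟩
    · intro φ
      apply hom_ext
      have e : (1 : F[X] ⧸ Ideal.span {g}) = Submodule.Quotient.mk (1 : F[X]) := rfl
      rw [e, Submodule.liftQ_apply, LinearMap.toSpanSingleton_apply, one_smul]
    · intro a
      have e : (1 : F[X] ⧸ Ideal.span {g}) = Submodule.Quotient.mk (1 : F[X]) := rfl
      change (Submodule.liftQ _ _ _) (1 : F[X] ⧸ Ideal.span {g}) = a
      rw [e, Submodule.liftQ_apply, LinearMap.toSpanSingleton_apply, one_smul]
  · have hcop : IsCoprime g f := by
      rw [hg'.coprime_iff_not_dvd]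
      intro hd
      exact h (eq_of_monic_of_associated hg hf ((hg'.associated_of_dvd hf') hd))
    obtain ⟨u, v, huv⟩ := hcop
    have : Subsingleton ((F[X] ⧸ Ideal.span {g}) →ₗ[F[X]] (F[X] ⧸ Ideal.span {f})) := by
      refine ⟨fun φ ψ => ?_⟩
      have key : ∀ φ : (F[X] ⧸ Ideal.span {g}) →ₗ[F[X]] (F[X] ⧸ Ideal.span {f}), φ 1 = 0 := by
        intro φ
        calc φ 1 = (u * g + v * f) • φ 1 := by rw [huv, one_smul]
          _ = u • φ (g • 1) + v • (f • φ 1) := by rw [add_smul, mul_smul, mul_smul, map_smul]
          _ = 0 := by rw [smul_quot, smul_quot, map_zero, smul_zero, smul_zero, add_zero]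
      exact hom_ext ((key φ).trans (key ψ).symm)
    exact Nat.card_of_subsingleton 0

/-- **Homomorphisms to a simple module.** -/
theorem card_hom [Finite F] [DecidableEq F[X]] {f : F[X]} (hf : f.Monic) (hf' : Irreducible f)
    (l : List F[X]) (hl : ∀ g ∈ l, g.Monic ∧ Irreducible g) (M : Type u) [AddCommGroup M]
    [Module F[X] M] (hM : HasType l M) {S : Type*} [AddCommGroup S] [Module F[X] S]
    (e : S ≃ₗ[F[X]] (F[X] ⧸ Ideal.span {f})) :
    Nat.card (M →ₗ[F[X]] S) = (Nat.card F ^ f.natDegree) ^ (l.count f) := by
  induction l generalizing M with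
  | nil =>
    have : Subsingleton M := hM
    have h2 : Subsingleton (M →ₗ[F[X]] S) := ⟨fun φ ψ => LinearMap.ext fun x => by
      rw [Subsingleton.elim x 0, map_zero, map_zero]⟩
    rw [List.count_nil, pow_zero]
    exact Nat.card_of_subsingleton 0
  | cons g l ih =>
    obtain ⟨s, y, hsy, ⟨es⟩, hy⟩ := hM
    have ih' := ih (fun g hg => hl g (List.mem_cons_of_mem _ hg)) y hy
    have hg := hl g List.mem_cons_self
    have e1 : (M →ₗ[F[X]] S) ≃ (s →ₗ[F[X]] S) × (y →ₗ[F[X]] S) :=
      ((LinearEquiv.arrowCongr (Submodule.prodEquivOfIsCompl s y hsy).symm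
        (LinearEquiv.refl F[X] S)).toEquiv.trans
        (LinearMap.coprodEquiv F[X] (M := s) (M₂ := y) (M₃ := S)).symm.toEquiv)
    rw [Nat.card_congr e1, Nat.card_prod, ih',
      Nat.card_congr (LinearEquiv.arrowCongr es e).toEquiv, card_hom_simple hf hg.1 hf' hg.2,
      List.count_cons]
    by_cases h : g = f
    · rw [if_pos h, if_pos (by simpa using h), pow_succ, mul_comm]
    · rw [if_neg h, if_neg (by simpa using h), one_mul, add_zero]

/-- **The Möbius number of a semisimple module.** -/
theorem mu_top [Finite F] [DecidableEq F[X]] (l : List F[X])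
    (hl : ∀ g ∈ l, g.Monic ∧ Irreducible g) (M : Type u) [AddCommGroup M]
    [Module F[X] M] [Finite M] (hM : HasType l M) : muM F[X] M = val (Nat.card F) l := by
  induction l generalizing M with
  | nil =>
    have : Subsingleton M := hM
    exact muM_of_subsingleton
  | cons f l ih =>
    obtain ⟨s, y, hsy, ⟨es⟩, hy⟩ := hM
    have hl' : ∀ g ∈ l, g.Monic ∧ Irreducible g := fun g hg => hl g (List.mem_cons_of_mem _ hg)
    have ih' := ih hl' y hy
    have hf := hl f List.mem_cons_self
    have hmax : (Ideal.span {f} : Ideal F[X]).IsMaximal :=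
      PrincipalIdealRing.isMaximal_of_irreducible hf.2
    have hsimp : IsSimpleModule F[X] s := by
      have h1 : IsSimpleModule F[X] (F[X] ⧸ Ideal.span {f}) :=
        isSimpleModule_iff_isCoatom.mpr (Ideal.isMaximal_def.mp hmax)
      exact IsSimpleModule.congr es
    rw [muM_eq hsy hsimp, card_hom hf.1 hf.2 l hl' y hy es, ih', val]
    push_cast
    rfl

theorem exists_type [Finite F] (M : Type u) [AddCommGroup M]
    [Module F[X] M] [Finite M] [IsSemisimpleModule F[X] M] :
    ∃ l : List F[X], (∀ g ∈ l, g.Monic ∧ Irreducible g) ∧ HasType l M := by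
  classical
  obtain ⟨n, hn⟩ : ∃ n, Nat.card M = n := ⟨_, rfl⟩
  induction n using Nat.strong_induction_on generalizing M with
  | _ n ih =>
    rcases subsingleton_or_nontrivial M with h | h
    · exact ⟨[], by simp, h⟩
    · obtain ⟨s, hs⟩ := IsAtomic.exists_atom (Submodule F[X] M)
      obtain ⟨y, hy⟩ := exists_isCompl s
      have hsimp : IsSimpleModule F[X] s := isSimpleModule_iff_isAtom.mpr hs
      have hlt : Nat.card y < n := by
        rw [← hn]
        have hne : y ≠ ⊤ := by
          rintro rfl
          exact hs.1 (by simpa using hy.disjoint.eq_bot)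
        have h1 : (y : Set M) ⊂ Set.univ := by
          rw [Set.ssubset_univ_iff]
          exact fun h => hne (SetLike.coe_injective h)
        have h2 := Set.ncard_lt_ncard h1
        rw [Set.ncard_univ] at h2
        exact h2
      obtain ⟨l, hl, hly⟩ := ih (Nat.card y) hlt y rfl
      obtain ⟨I, hI, ⟨e⟩⟩ := isSimpleModule_iff_quot_maximal.mp hsimp
      obtain ⟨f, hf⟩ := IsPrincipalIdealRing.principal I
      have hf' : I = Ideal.span {f} := hf
      have hIne : I ≠ ⊥ := Ring.ne_bot_of_isMaximal_of_not_isField hI (Polynomial.not_isField F)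
      have hf0 : f ≠ 0 := by
        rintro rfl
        exact hIne (by simpa using hf')
      have hassoc : Associated (normalize f) f := (associated_normalize f).symm
      have hirr : Irreducible (normalize f) := by
        rw [hf'] at hI
        exact (hassoc.irreducible_iff).mpr
          ((Ideal.span_singleton_prime hf0).mp hI.isPrime).irreducible
      have hspan : I = Ideal.span {normalize f} := by
        rw [hf']
        exact (Ideal.span_singleton_eq_span_singleton.mpr hassoc).symm
      refine ⟨normalize f :: l, ?_, s, y, hy, ?_, hly⟩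
      · intro g hg
        rcases List.mem_cons.mp hg with rfl | hg
        · exact ⟨Polynomial.monic_normalize hf0, hirr⟩
        · exact hl g hg
      · rw [← hspan]
        exact ⟨e⟩

/-- multiplication by `X` as an `F`-linear map -/
noncomputable def xend (F : Type*) [Field F] (M : Type*) [AddCommGroup M] [Module F M]
    [Module F[X] M] [IsScalarTower F F[X] M] : M →ₗ[F] M := Algebra.lsmul F F M (X : F[X])

theorem xend_apply {F : Type*} [Field F] {M : Type*} [AddCommGroup M] [Module F M]
    [Module F[X] M] [IsScalarTower F F[X] M] (m : M) : xend F M m = (X : F[X]) • m := rfl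

theorem charpoly_quot {f : F[X]} (hf : f.Monic) (M : Type*) [AddCommGroup M] [Module F M]
    [Module F[X] M] [IsScalarTower F F[X] M] [Module.Finite F M]
    (e : M ≃ₗ[F[X]] (F[X] ⧸ Ideal.span {f})) : (xend F M).charpoly = f := by
  have hfin : Module.Finite F (AdjoinRoot f) := (AdjoinRoot.powerBasis hf.ne_zero).finite
  have hfin' : Module.Finite F (F[X] ⧸ Ideal.span {f}) := hfin
  have h1 : (xend F (F[X] ⧸ Ideal.span {f})).charpoly = f := by
    set B := AdjoinRoot.powerBasis hf.ne_zero
    have h2 := charpoly_leftMulMatrix B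
    rw [AdjoinRoot.powerBasis_gen, AdjoinRoot.minpoly_root hf.ne_zero, hf.leadingCoeff, inv_one,
      map_one, mul_one] at h2
    rw [Algebra.leftMulMatrix_apply, LinearMap.charpoly_toMatrix] at h2
    exact h2
  rw [← h1]
  rw [← LinearEquiv.charpoly_conj (e.restrictScalars F)]
  congr 1
  apply LinearMap.ext
  intro a
  rw [LinearEquiv.conj_apply_apply, xend_apply, xend_apply]
  change e ((X : F[X]) • e.symm a) = X • a
  rw [map_smul, LinearEquiv.apply_symm_apply]

theorem charpoly_compl (M : Type*) [AddCommGroup M] [Module F M]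
    [Module F[X] M] [IsScalarTower F F[X] M] [Module.Finite F M] {s y : Submodule F[X] M}
    (h : IsCompl s y) [Module.Finite F s] [Module.Finite F y] :
    (xend F M).charpoly = (xend F s).charpoly * (xend F y).charpoly := by
  rw [← LinearMap.charpoly_prodMap,
    ← LinearEquiv.charpoly_conj ((Submodule.prodEquivOfIsCompl s y h).restrictScalars F)]
  congr 1
  apply LinearMap.ext
  intro a
  obtain ⟨b, rfl⟩ := (Submodule.prodEquivOfIsCompl s y h).surjective a
  rw [LinearEquiv.conj_apply_apply, xend_apply]
  change (X : F[X]) • (Submodule.prodEquivOfIsCompl s y h) b = (Submodule.prodEquivOfIsCompl s y h)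
    ((xend F s).prodMap (xend F y) ((Submodule.prodEquivOfIsCompl s y h).symm
      ((Submodule.prodEquivOfIsCompl s y h) b)))
  rw [LinearEquiv.symm_apply_apply, ← map_smul]
  rfl

theorem charpoly_eq (l : List F[X]) (hl : ∀ g ∈ l, g.Monic ∧ Irreducible g) (M : Type u)
    [AddCommGroup M] [Module F M] [Module F[X] M] [IsScalarTower F F[X] M] [Module.Finite F M]
    (hM : HasType l M) : (xend F M).charpoly = l.prod := by
  induction l generalizing M with
  | nil =>
    have : Subsingleton M := hM
    rw [List.prod_nil]
    have h1 := LinearMap.charpoly_natDegree (xend F M)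
    rw [Module.finrank_zero_of_subsingleton] at h1
    exact (Polynomial.Monic.natDegree_eq_zero (LinearMap.charpoly_monic (xend F M))).mp h1
  | cons f l ih =>
    obtain ⟨s, y, hsy, ⟨es⟩, hy⟩ := hM
    have hs : Module.Finite F s := Module.Finite.of_injective (s.subtype.restrictScalars F) s.subtype_injective
    have hyf : Module.Finite F y := Module.Finite.of_injective (y.subtype.restrictScalars F) y.subtype_injective
    have ih' := ih (fun g hg => hl g (List.mem_cons_of_mem _ hg)) y hy
    have hf := hl f List.mem_cons_self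
    rw [charpoly_compl M hsy, charpoly_quot hf.1 s es, ih', List.prod_cons]

end types

end Cfsg.Agent.H140.SemiMu
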