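import Mathlib
import Cfsg.Prelude.Def_LinearParabolics
import Cfsg.Agent.H140.SteinComb
import Cfsg.Agent.H140.Flags
import Cfsg.Agent.H140.SemiMu

/-!
# The Steinberg character of `GL_n(q)` as a Möbius function
-/

set_option autoImplicit false

namespace Cfsg.Agent.H140.SteinVal

open Module Polynomial Matrix Cfsg.Agent.H140.Moebius Cfsg.Agent.H140.Flags Cfsg.Agent.H140.SteinComb
  Cfsg.Agent.H140.SemiMu

universe u

variable {n : ℕ} {F : Type u} [Field F]

/-- the endomorphism of a matrix -/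
abbrev En (x : GL (Fin n) F) : (Fin n → F) →ₗ[F] (Fin n → F) :=
  Matrix.toLin' (x : Matrix (Fin n) (Fin n) F)

/-- the `F[X]`-module of a matrix -/
abbrev A (x : GL (Fin n) F) : Type u := Module.AEval' (En x)

/-- the subspace of a submodule -/
noncomputable def ψ (x : GL (Fin n) F) (K : Submodule F[X] (A x)) : Submodule F (Fin n → F) :=
  (K.restrictScalars F).comap (AEval'.of (En x) : (Fin n → F) →ₗ[F] A x)

theorem mem_ψ {x : GL (Fin n) F} {K : Submodule F[X] (A x)} {v : Fin n → F} :
    v ∈ ψ x K ↔ AEval'.of (En x) v ∈ K := Iff.rfl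

theorem ψ_le_iff {x : GL (Fin n) F} {K L : Submodule F[X] (A x)} : ψ x K ≤ ψ x L ↔ K ≤ L := by
  constructor
  · intro h a ha
    obtain ⟨v, rfl⟩ := (AEval'.of (En x)).surjective a
    exact h ha
  · intro h v hv
    exact h hv

theorem ψ_injective {x : GL (Fin n) F} : Function.Injective (ψ x) := fun _ _ h =>
  le_antisymm (ψ_le_iff.mp h.le) (ψ_le_iff.mp h.ge)

theorem act_ψ {x : GL (Fin n) F} (K : Submodule F[X] (A x)) : act x (ψ x K) = ψ x K := by
  apply Submodule.eq_of_le_of_finrank_eq _ (finrank_act x _)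
  rintro _ ⟨v, hv, rfl⟩
  change v ∈ ψ x K at hv
  rw [mem_ψ] at hv ⊢
  have h := K.smul_mem (X : F[X]) hv
  rw [AEval'.X_smul_of] at h
  exact h

theorem exists_ψ {x : GL (Fin n) F} {W : Submodule F (Fin n → F)} (hW : act x W = W) :
    ∃ K, ψ x K = W := by
  have h : W ∈ (Algebra.lsmul F F (Fin n → F) (En x)).invtSubmodule := by
    intro v hv
    have h2 : En x v ∈ act x W := ⟨v, hv, rfl⟩
    rw [hW] at h2
    exact h2
  refine ⟨AEval.mapSubmodule F (Fin n → F) (En x) ⟨W, h⟩, ?_⟩
  ext v
  rw [mem_ψ, AEval.mem_mapSubmodule_apply]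
  rfl

theorem ψ_bot (x : GL (Fin n) F) : ψ x ⊥ = ⊥ := by
  ext v
  rw [mem_ψ, Submodule.mem_bot, Submodule.mem_bot, LinearEquiv.map_eq_zero_iff]

theorem ψ_top (x : GL (Fin n) F) : ψ x ⊤ = ⊤ := by
  ext v
  rw [mem_ψ]
  simp

/-- the dimension -/
noncomputable def dm (x : GL (Fin n) F) (K : Submodule F[X] (A x)) : ℕ := finrank F (ψ x K)

theorem dm_pos_iff {x : GL (Fin n) F} {K : Submodule F[X] (A x)} : 0 < dm x K ↔ ⊥ < K := by
  unfold dm
  rw [Nat.pos_iff_ne_zero, Ne, Submodule.finrank_eq_zero, bot_lt_iff_ne_bot, ← ψ_bot x,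
    ψ_injective.eq_iff]

theorem dm_lt_iff {x : GL (Fin n) F} {K : Submodule F[X] (A x)} : dm x K < n ↔ K < ⊤ := by
  have h1 : finrank F (Fin n → F) = n := by simp
  unfold dm
  constructor
  · intro h
    rw [lt_top_iff_ne_top]
    rintro rfl
    rw [ψ_top, finrank_top, h1] at h
    exact lt_irrefl _ h
  · intro h
    have h2 : ψ x K ≠ ⊤ := by
      rw [← ψ_top x, ψ_injective.ne_iff]
      exact h.ne
    have h3 := Submodule.finrank_lt h2
    rwa [h1] at h3

theorem dm_inj {x : GL (Fin n) F} {K L : Submodule F[X] (A x)} (h : K ≤ L) (hd : dm x K = dm x L) :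
    K = L := ψ_injective (Submodule.eq_of_le_of_finrank_eq (ψ_le_iff.mpr h) hd)

variable [Finite F]

instance finiteA (x : GL (Fin n) F) : Finite (A x) := inferInstanceAs (Finite (Fin n → F))

open Classical in
/-- **Flags of type `E` fixed by `x` are the chains of submodules of type `E`.** -/
theorem card_isFlag (x : GL (Fin n) F) {E : Finset ℕ} (hE : E ⊆ Finset.Ioo 0 n) :
    Nat.card {C : Finset (Submodule F (Fin n → F)) // IsFlag E x C} =
      ((chains (⊤ : Submodule F[X] (A x))).filter fun C => C.image (dm x) = E).card := by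
  have hcard : ∀ S : Finset (Finset (Submodule F[X] (A x))), S.card = Nat.card {C // C ∈ S} := by
    intro S
    rw [Nat.card_eq_fintype_card, Fintype.card_coe]
  rw [hcard]
  symm
  refine Nat.card_congr (Equiv.ofBijective (fun C => ⟨C.1.image (ψ x), ?_⟩) ⟨?_, ?_⟩)
  · obtain ⟨C, hC⟩ := C
    rw [Finset.mem_filter, mem_chains] at hC
    obtain ⟨⟨hch, hlt⟩, him⟩ := hC
    refine ⟨?_, ?_, ?_, ?_⟩
    · intro U hU W hW _
      rw [Finset.mem_coe, Finset.mem_image] at hU hW
      obtain ⟨K, hK, rfl⟩ := hU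
      obtain ⟨L, hL, rfl⟩ := hW
      rcases hch.total hK hL with h | h
      · exact Or.inl (ψ_le_iff.mpr h)
      · exact Or.inr (ψ_le_iff.mpr h)
    · intro W hW
      rw [Finset.mem_image] at hW
      obtain ⟨K, hK, rfl⟩ := hW
      rw [← him]
      exact Finset.mem_image_of_mem (dm x) hK
    · intro d hd
      rw [← him, Finset.mem_image] at hd
      obtain ⟨K, hK, rfl⟩ := hd
      exact ⟨_, Finset.mem_image_of_mem _ hK, rfl⟩
    · intro W hW
      rw [Finset.mem_image] at hW
      obtain ⟨K, hK, rfl⟩ := hW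
      exact act_ψ K
  · intro C C' h
    exact Subtype.ext (Finset.image_injective ψ_injective (congrArg Subtype.val h))
  · rintro ⟨C, hch, h1, h2, h3⟩
    have hex : ∀ W : Submodule F (Fin n → F), ∃ K : Submodule F[X] (A x), W ∈ C → ψ x K = W := by
      intro W
      by_cases hW : W ∈ C
      · obtain ⟨K, hK⟩ := exists_ψ (h3 W hW)
        exact ⟨K, fun _ => hK⟩
      · exact ⟨⊥, fun h => absurd h hW⟩
    choose χ hχ using hex
    have him : (C.image χ).image (ψ x) = C := by
      rw [Finset.image_image]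
      ext W
      rw [Finset.mem_image]
      constructor
      · rintro ⟨U, hU, rfl⟩
        rw [Function.comp_apply, hχ U hU]
        exact hU
      · intro hW
        exact ⟨W, hW, hχ W hW⟩
    refine ⟨⟨C.image χ, ?_⟩, Subtype.ext him⟩
    rw [Finset.mem_filter, mem_chains]
    refine ⟨⟨?_, ?_⟩, ?_⟩
    · intro K hK L hL _
      rw [Finset.mem_coe, Finset.mem_image] at hK hL
      obtain ⟨U, hU, rfl⟩ := hK
      obtain ⟨W, hW, rfl⟩ := hL
      rcases hch.total hU hW with h | h
      · left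
        change χ U ≤ χ W
        rw [← ψ_le_iff, hχ U hU, hχ W hW]
        exact h
      · right
        change χ W ≤ χ U
        rw [← ψ_le_iff, hχ U hU, hχ W hW]
        exact h
    · intro K hK
      rw [Finset.mem_image] at hK
      obtain ⟨U, hU, rfl⟩ := hK
      have h4 := Finset.mem_Ioo.mp (hE (h1 U hU))
      have h5 : dm x (χ U) = finrank F U := by
        unfold dm
        rw [hχ U hU]
      rw [← h5] at h4
      exact ⟨dm_pos_iff.mp h4.1, dm_lt_iff.mp h4.2⟩
    · ext d
      rw [Finset.image_image, Finset.mem_image]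
      constructor
      · rintro ⟨U, hU, rfl⟩
        rw [Function.comp_apply, dm, hχ U hU]
        exact h1 U hU
      · intro hd
        obtain ⟨U, hU, rfl⟩ := h2 d hd
        exact ⟨U, hU, by rw [Function.comp_apply, dm, hχ U hU]⟩

/-- **The alternating sum for `ν = (1, …, 1)` is a Möbius number.** -/
theorem unipotent_eq (x : GL (Fin (n + 1)) F) :
    Cfsg.unipotentCharacterGL (n + 1) F (fun _ => 1) x = (-1) ^ (n + 1) * ((muM F[X] (A x) : ℤ) : ℂ) := by
  classical
  have hle : ∀ κ : Equiv.Perm (Fin (n + 1)), ∀ d ∈ D κ, d ≤ n + 1 := by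
    intro κ d hd
    rw [mem_D] at hd
    exact hd.1.2.le
  have h1 : Cfsg.unipotentCharacterGL (n + 1) F (fun _ => 1) x =
      ∑ κ : Equiv.Perm (Fin (n + 1)), if ∀ i : Fin (n + 1), (κ i).val ≤ 1 + i.val then
      ((Equiv.Perm.sign κ : ℤ) : ℂ) *
        ((Nat.card {C : Finset (Submodule F (Fin (n + 1) → F)) // IsFlag (D κ) x C} : ℕ) : ℂ) else 0 := by
    unfold Cfsg.unipotentCharacterGL
    apply Finset.sum_congr rfl
    intro κ _
    split_ifs with hκ
    · congr 1
      unfold Cfsg.fixedPointCharacter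
      rw [card_fixedBy_eq (hle κ) (Cfsg.parabolicGL (n + 1) F fun i => 1 + i.val - (κ i).val) ?_ x]
      intro g
      rw [mem_parabolic_iff κ hκ]
      constructor
      · intro h d hd
        rw [act_std_eq_iff]
        exact h d hd
      · intro h d hd
        rw [← act_std_eq_iff]
        exact h d hd
    · rfl
  rw [h1, sum_perm n (fun E =>
    ((Nat.card {C : Finset (Submodule F (Fin (n + 1) → F)) // IsFlag E x C} : ℕ) : ℂ))]
  have h2 : ∀ E ∈ (Finset.Ioo 0 (n + 1)).powerset, (-1 : ℂ) ^ (n + E.card) *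
      ((Nat.card {C : Finset (Submodule F (Fin (n + 1) → F)) // IsFlag E x C} : ℕ) : ℂ) =
      ∑ C ∈ (chains (⊤ : Submodule F[X] (A x))).filter (fun C => C.image (dm x) = E),
        (-1 : ℂ) ^ (n + C.card) := by
    intro E hE
    rw [card_isFlag x (Finset.mem_powerset.mp hE)]
    have h3 : ∀ C ∈ (chains (⊤ : Submodule F[X] (A x))).filter (fun C => C.image (dm x) = E),
        (-1 : ℂ) ^ (n + C.card) = (-1 : ℂ) ^ (n + E.card) := by
      intro C hC
      rw [Finset.mem_filter, mem_chains] at hC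
      rw [← hC.2, Finset.card_image_of_injOn]
      intro K hK L hL hKL
      rcases hC.1.1.total hK hL with h | h
      · exact dm_inj h hKL
      · exact (dm_inj h hKL.symm).symm
    rw [Finset.sum_congr rfl h3, Finset.sum_const, nsmul_eq_mul, mul_comm]
  rw [Finset.sum_congr rfl h2, Finset.sum_fiberwise_of_maps_to]
  · have h4 : muM F[X] (A x) = - csum (⊤ : Submodule F[X] (A x)) := by
      unfold muM
      apply mu_of_ne
      intro h
      have h5 : dm x (⊤ : Submodule F[X] (A x)) = 0 := by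
        by_contra h6
        exact (dm_pos_iff.mp (Nat.pos_of_ne_zero h6)).ne' h
      unfold dm at h5
      rw [ψ_top, finrank_top] at h5
      simp at h5
    rw [h4, csum]
    push_cast
    rw [mul_neg, pow_succ, mul_neg_one, neg_mul, neg_neg, Finset.mul_sum]
    apply Finset.sum_congr rfl
    intro C _
    rw [pow_add]
  · intro C hC
    rw [mem_chains] at hC
    rw [Finset.mem_powerset]
    intro d hd
    rw [Finset.mem_image] at hd
    obtain ⟨K, hK, rfl⟩ := hd
    rw [Finset.mem_Ioo]
    exact ⟨dm_pos_iff.mpr (hC.2 K hK).1, dm_lt_iff.mpr (hC.2 K hK).2⟩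

end Cfsg.Agent.H140.SteinVal
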